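import Mathlib
import Cfsg.Agent.Lib.Helper14.Spec.Defs
import Cfsg.Agent.Lib.Helper40.PSpRP

/-!
# S2362 package [EXIST]: `PSp_{2n}(q)` has an element of order `p (q^(n-1) + 1)` (helper97)

Adapted from helper40's `psp_rp_exists`: block sum of the torus element of `PkgSpTorus` (size
`2(n-1)`) and a transvection.
-/

set_option autoImplicit false
set_option linter.unusedSectionVars false

namespace Cfsg.Agent.Lib.Helper97.Spec

open Matrix Polynomial Cfsg.Agent.Lib.Helper40.DualPoly Cfsg.Agent.Lib.Helper40.SympWall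
  Cfsg.Agent.Lib.Helper40.SpExist Cfsg.Agent.Lib.Helper40.PrimeOrderGL
  Cfsg.Agent.Lib.Helper40.GUPrimeOrder Cfsg.Agent.Lib.Helper40.PSUCommute
  Cfsg.Agent.Lib.Helper40.PSpRP

universe u

theorem pkgExist : Cfsg.Agent.Lib.Helper14.Spec.PkgExist.{u} := by
  intro hT F _ _ p _ _ hp2 n hn
  classical
  have hpp : p.Prime := Fact.out
  obtain ⟨ι₁, _, _, M₁, y₁, y₁', hcard₁, hy₁, halt₁, hinv₁, hord₁⟩ := hT (F := F) (n - 1) (by omega)
  -- coprimality
  have hpq : p ∣ Fintype.card F := by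
    obtain ⟨f, -, hf⟩ := FiniteField.card F p
    rw [hf]
    exact dvd_pow_self p f.ne_zero
  have hcop : Nat.Coprime (Fintype.card F ^ (n - 1) + 1) p := by
    rw [Nat.coprime_comm, Nat.Prime.coprime_iff_not_dvd hpp]
    intro h
    have h1 : p ∣ Fintype.card F ^ (n - 1) := dvd_pow hpq (by omega)
    have h2 : p ∣ 1 := (Nat.dvd_add_right h1).mp h
    exact hpp.one_lt.ne' (Nat.dvd_one.mp h2)
  obtain ⟨U, hU⟩ : ∃ U : Matrix (Fin 1 ⊕ Fin 1) (Fin 1 ⊕ Fin 1) F,
      U = (fromBlocks 1 1 0 1 : Matrix (Fin 1 ⊕ Fin 1) (Fin 1 ⊕ Fin 1) F) := ⟨_, rfl⟩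
  obtain ⟨M, hM⟩ : ∃ M : Matrix (ι₁ ⊕ (Fin 1 ⊕ Fin 1)) (ι₁ ⊕ (Fin 1 ⊕ Fin 1)) F,
      M = fromBlocks M₁ 0 0 U := ⟨_, rfl⟩
  have hyy : fromBlocks y₁ 0 0 (Matrix.J (Fin 1) F) * fromBlocks y₁' 0 0 (-Matrix.J (Fin 1) F) =
      1 := by
    rw [fromBlocks_multiply]
    simp only [Matrix.mul_zero, Matrix.zero_mul, add_zero, zero_add, hy₁, mul_neg,
      Matrix.J_squared, neg_neg, fromBlocks_one]
  have haltM : ∀ v : ι₁ ⊕ (Fin 1 ⊕ Fin 1) → F,
      v ⬝ᵥ fromBlocks y₁ 0 0 (Matrix.J (Fin 1) F) *ᵥ v = 0 := by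
    intro v
    obtain ⟨a, b, rfl⟩ : ∃ a b, v = Sum.elim a b :=
      ⟨v ∘ Sum.inl, v ∘ Sum.inr, (Sum.elim_comp_inl_inr v).symm⟩
    rw [fromBlocks_mulVec, sumElim_dotProduct_sumElim]
    simp only [Matrix.zero_mulVec, add_zero, zero_add, halt₁, J_alt, Sum.elim_comp_inl,
      Sum.elim_comp_inr]
  have hinvM : Mᵀ * fromBlocks y₁ 0 0 (Matrix.J (Fin 1) F) * M =
      fromBlocks y₁ 0 0 (Matrix.J (Fin 1) F) := by
    rw [hM, fromBlocks_transpose, fromBlocks_multiply, fromBlocks_multiply]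
    simp only [Matrix.mul_zero, Matrix.zero_mul, add_zero, zero_add, hinv₁, transpose_zero]
    rw [hU, U_J]
  obtain ⟨m, hm, φ, hφ⟩ := sp_of_form M _ _ hyy haltM hinvM
  have hmn : m = n := by
    rw [Fintype.card_sum, hcard₁, Fintype.card_sum, Fintype.card_fin] at hm
    omega
  subst hmn
  obtain ⟨g, hgdef⟩ : ∃ g : ↥(Matrix.symplecticGroup (Fin m) F), g.1 = φ M :=
    ⟨⟨φ M, hφ⟩, rfl⟩
  have hMpow : ∀ j : ℕ, M ^ j = fromBlocks (M₁ ^ j) 0 0
      (fromBlocks 1 ((j : F) • (1 : Matrix (Fin 1) (Fin 1) F)) 0 1 :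
        Matrix (Fin 1 ⊕ Fin 1) (Fin 1 ⊕ Fin 1) F) := by
    intro j
    rw [hM, fromBlocks_diagonal_pow, hU, U_pow]
  have key : ∀ j : ℕ, (QuotientGroup.mk g : Cfsg.PSp m F) ^ j = 1 ↔
      (Fintype.card F ^ (m - 1) + 1) * p ∣ j := by
    intro j
    rw [← QuotientGroup.mk_pow, QuotientGroup.eq_one_iff]
    constructor
    · intro hcen
      obtain ⟨c, hcc, hc⟩ := Cfsg.Agent.Lib.Helper40.center_scalar m (by omega) (g ^ j) hcen
      rw [SubmonoidClass.coe_pow, hgdef, ← map_pow] at hc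
      have h1 : M ^ j = c • 1 := by
        apply φ.injective
        rw [hc, map_smul, map_one]
      rw [hMpow j, ← fromBlocks_one, fromBlocks_smul, smul_zero] at h1
      obtain ⟨h11, -, -, h22⟩ := fromBlocks_inj.mp h1
      rw [← fromBlocks_one, fromBlocks_smul] at h22
      obtain ⟨h22a, h22b, -, -⟩ := fromBlocks_inj.mp h22
      have hc1 : c = 1 := by
        have := congrFun (congrFun h22a 0) 0
        simpa using this.symm
      have hj0 : (j : F) = 0 := by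
        have := congrFun (congrFun h22b 0) 0
        simpa using this
      have hpj : p ∣ j := (CharP.cast_eq_zero_iff F p j).mp hj0
      rw [hc1, one_smul] at h11
      have hrj : (Fintype.card F ^ (m - 1) + 1) ∣ j := (hord₁ j).mp h11
      exact Nat.Coprime.mul_dvd_of_dvd_of_dvd hcop hrj hpj
    · rintro ⟨c, rfl⟩
      have h1 : g ^ ((Fintype.card F ^ (m - 1) + 1) * p * c) = 1 := by
        apply Subtype.ext
        rw [SubmonoidClass.coe_pow, hgdef, ← map_pow, hMpow]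
        have e1 : M₁ ^ ((Fintype.card F ^ (m - 1) + 1) * p * c) = 1 := by
          rw [hord₁]
          exact Dvd.dvd.mul_right (dvd_mul_right _ p) c
        have e2 : (((Fintype.card F ^ (m - 1) + 1) * p * c : ℕ) : F) = 0 := by
          rw [CharP.cast_eq_zero_iff F p]
          exact Dvd.dvd.mul_right (dvd_mul_left p _) c
        rw [e1, e2, zero_smul, fromBlocks_one, fromBlocks_one, map_one]
        rfl
      rw [h1]
      exact Subgroup.one_mem _
  refine ⟨QuotientGroup.mk g, ?_⟩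
  rw [mul_comm p]
  apply Nat.dvd_antisymm
  · exact orderOf_dvd_of_pow_eq_one ((key _).mpr dvd_rfl)
  · exact (key _).mp (pow_orderOf_eq_one _)

end Cfsg.Agent.Lib.Helper97.Spec
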